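import Cfsg.Agent.H919.FourB
import Cfsg.Agent.H872.KronRank

/-!
# `Sp_2(q) ⊗ O_4(q)` in `Sp_8(q)`: reflections, unipotent elements (helper919)
-/

set_option autoImplicit false
set_option linter.unusedSectionVars false

open Cfsg Cfsg.Geo Matrix
open scoped Kronecker

namespace Cfsg.Agent.H919.Four

open Cfsg.Agent.H929 (QF rB)
open Cfsg.Agent.H872 Cfsg.Agent.H924.Ten

variable {β : Type} [Fintype β] [DecidableEq β] {F : Type*} [Field F]
variable {f₁ : (Fin 2 → F) → (Fin 2 → F) → F} {Q : (β → F) → F} {B : (β → F) → (β → F) → F}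
  {f : (Fin 2 × β → F) → (Fin 2 × β → F) → F}

variable (T : Tens f₁ Q B f) {M : Subgroup (GL (Fin 2 × β) F)} (hM : Grp f₁ B f M)

include T

/-- the reflection in a nonsingular vector -/
lemma exists_refl {a : β → F} (ha : Q a ≠ 0) : ∃ r : GL β F,
    (∀ x, (r : Matrix β β F) *ᵥ x = x - (B x a / Q a) • a) ∧ (∀ x, Q ((r : Matrix β β F) *ᵥ x) = Q x) := by
  let R₀ : (β → F) →ₗ[F] (β → F) :=
    { toFun := fun x => x - (B x a / Q a) • a
      map_add' := fun x y => by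
        rw [T.qf.add_left, add_div, add_smul]; abel
      map_smul' := fun c x => by
        rw [T.qf.smul_left, mul_div_assoc, RingHom.id_apply, smul_sub, smul_smul] }
  have hR₀ : ∀ x, R₀ x = x - (B x a / Q a) • a := fun x => rfl
  have hB : ∀ x, B (R₀ x) a = - B x a := by
    intro x
    rw [hR₀, T.qf.sub_left, T.qf.smul_left, T.qf.self]
    field_simp
    ring
  obtain ⟨r, hr⟩ := exists_gl_of_injective R₀ (by
    intro x hx
    have h1 := hB x
    rw [hx, T.qf.zero_left] at h1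
    have h2 : B x a = 0 := neg_eq_zero.mp h1.symm
    rw [hR₀, h2, zero_div, zero_smul, sub_zero] at hx
    exact hx)
  refine ⟨r, fun x => by rw [hr, hR₀], fun x => ?_⟩
  rw [hr, hR₀, sub_eq_add_neg, ← neg_smul, T.qf.add, T.qf.smul, T.qf.smul_right]
  field_simp
  ring

/-- `O(W)` is transitive on the nonzero vectors of given norm; the elements are products of reflections in
vectors of `w^⊥` when both vectors lie in `w^⊥`. -/
lemma exists_iso_map {x y : β → F} (hx : x ≠ 0) (hy : y ≠ 0) (h : Q x = Q y) : ∃ b : GL β F,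
    (∀ z, Q ((b : Matrix β β F) *ᵥ z) = Q z) ∧ (b : Matrix β β F) *ᵥ x = y := by
  -- one reflection
  have step : ∀ x y : β → F, Q x = Q y → Q (x - y) ≠ 0 → ∃ b : GL β F,
      (∀ z, Q ((b : Matrix β β F) *ᵥ z) = Q z) ∧ (b : Matrix β β F) *ᵥ x = y := by
    intro x y h h1
    obtain ⟨r, hr, hiso⟩ := exists_refl T h1
    refine ⟨r, hiso, ?_⟩
    have h2 : B x (x - y) = Q (x - y) := by
      have h3 : Q (x - y) = Q x + Q y - B x y := by
        rw [sub_eq_add_neg, T.qf.add, T.qf.neg, T.qf.neg_right]; ring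
      rw [h3, T.qf.sub_right, T.qf.self, h]; ring
    rw [hr, h2, div_self h1, one_smul]
    abel
  have comp : ∀ x y z : β → F, (∃ b : GL β F, (∀ z, Q ((b : Matrix β β F) *ᵥ z) = Q z) ∧
      (b : Matrix β β F) *ᵥ x = y) → (∃ b : GL β F, (∀ z, Q ((b : Matrix β β F) *ᵥ z) = Q z) ∧
      (b : Matrix β β F) *ᵥ y = z) → ∃ b : GL β F, (∀ z, Q ((b : Matrix β β F) *ᵥ z) = Q z) ∧
      (b : Matrix β β F) *ᵥ x = z := by
    rintro x y z ⟨b, hb, hb1⟩ ⟨c, hc, hc1⟩
    exact ⟨c * b, fun w => by rw [gl_mul_mulVec, hc, hb], by rw [gl_mul_mulVec, hb1, hc1]⟩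
  by_cases h1 : Q (x - y) = 0
  · by_cases hQ : Q x = 0
    · -- singular
      have hxy : B x y = 0 := by
        have h3 : Q (x - y) = Q x + Q y - B x y := by
          rw [sub_eq_add_neg, T.qf.add, T.qf.neg, T.qf.neg_right]; ring
        rw [h3, ← h, hQ] at h1
        linear_combination -h1
      obtain ⟨z, hz1, hz2⟩ : ∃ z, B x z ≠ 0 ∧ B y z ≠ 0 := by
        obtain ⟨a, ha⟩ := T.nd x hx
        obtain ⟨b, hb⟩ := T.nd y hy
        by_cases h2 : B y a = 0
        · by_cases h3 : B x b = 0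
          · refine ⟨a + b, ?_, ?_⟩
            · rw [T.qf.add_right, h3, add_zero]; exact ha
            · rw [T.qf.add_right, h2, zero_add]; exact hb
          · exact ⟨b, h3, hb⟩
        · exact ⟨a, ha, h2⟩
      set t := z - (Q z / B x z) • x with ht
      have hxx : B x x = 0 := by rw [T.qf.self, hQ, mul_zero]
      have hQt : Q t = 0 := by
        rw [ht, sub_eq_add_neg, ← neg_smul, T.qf.add, T.qf.smul, hQ, T.qf.smul_right, T.qf.comm z x]
        field_simp
        ring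
      have hxt : B x t = B x z := by
        rw [ht, T.qf.sub_right, T.qf.smul_right, hxx, mul_zero, sub_zero]
      have hyt : B y t = B y z := by
        rw [ht, T.qf.sub_right, T.qf.smul_right, T.qf.comm y x, hxy, mul_zero, sub_zero]
      refine comp x t y (step x t (by rw [hQ, hQt]) ?_) (step t y (by rw [hQt, ← h, hQ]) ?_)
      · rw [sub_eq_add_neg, T.qf.add, T.qf.neg, T.qf.neg_right, hQ, hQt, hxt]
        intro h4; apply hz1; linear_combination -h4
      · rw [sub_eq_add_neg, T.qf.add, T.qf.neg, T.qf.neg_right, hQt, ← h, hQ, T.qf.comm t y, hyt]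
        intro h4; apply hz2; linear_combination -h4
    · refine comp x (-y) y (step x (-y) (by rw [T.qf.neg, h]) ?_) (step (-y) y (by rw [T.qf.neg]) ?_)
      · intro h2
        apply hQ
        have h3 : Q (x - y) = Q x + Q y - B x y := by
          rw [sub_eq_add_neg, T.qf.add, T.qf.neg, T.qf.neg_right]; ring
        rw [sub_neg_eq_add, T.qf.add] at h2
        rw [h3] at h1
        have h4 : (2 : F) * (2 * Q x) = 0 := by rw [← h] at h1 h2; linear_combination h1 + h2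
        have h5 := (mul_eq_zero.mp h4).resolve_left T.two
        exact (mul_eq_zero.mp h5).resolve_left T.two
      · have h2 : -y - y = (-2 : F) • y := by
          funext i; simp only [Pi.sub_apply, Pi.neg_apply, Pi.smul_apply, smul_eq_mul]; ring
        rw [h2, T.qf.smul]
        refine mul_ne_zero (pow_ne_zero _ (neg_ne_zero.mpr T.two)) ?_
        rw [← h]; exact hQ
  · exact step x y h h1

/-- an isometry of the plane fixing `e` is a transvection -/
lemma tU_form {a : GL (Fin 2) F} (ha : ∀ u v, f₁ ((a : Matrix _ _ F) *ᵥ u) ((a : Matrix _ _ F) *ᵥ v) = f₁ u v)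
    {e : Fin 2 → F} (he : e ≠ 0) (hae : (a : Matrix _ _ F) *ᵥ e = e) :
    ∃ c : F, ∀ u, (a : Matrix _ _ F) *ᵥ u = u + (c * f₁ u e) • e := by
  obtain ⟨e', he'⟩ := exists_dual T he
  have hee' : f₁ e e' = -1 := by rw [T.sym.skew, he']
  have h1 : ∀ u, f₁ ((a : Matrix _ _ F) *ᵥ u) e = f₁ u e := by
    intro u
    conv_lhs => rw [← hae]
    exact ha u e
  -- a e' = e' + c e
  have h2 := expand T he' ((a : Matrix _ _ F) *ᵥ e')
  rw [h1, he', one_smul] at h2
  refine ⟨- f₁ ((a : Matrix _ _ F) *ᵥ e') e', fun u => ?_⟩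
  conv_lhs => rw [expand T he' u, Matrix.mulVec_add, Matrix.mulVec_smul, Matrix.mulVec_smul, hae, h2]
  conv_rhs => rw [expand T he' u]
  simp only [T.sym.bilinear.add_left, T.sym.bilinear.smul_left, T.sym.alternating, he']
  funext i
  simp only [Pi.add_apply, Pi.smul_apply, smul_eq_mul]
  ring

omit T in
/-- a nilpotent endomorphism has a kernel -/
lemma exists_fix_of_nilp {ι : Type} [Fintype ι] [DecidableEq ι] [Nonempty ι] (a : Matrix ι ι F) {n : ℕ}
    (h : (a - 1) ^ n = 0) : ∃ v : ι → F, v ≠ 0 ∧ a *ᵥ v = v := by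
  classical
  have hex : ∃ v : ι → F, v ≠ 0 := ⟨fun _ => 1, fun h => by
    have := congrFun h (Classical.arbitrary ι); simp at this⟩
  obtain ⟨v, hv⟩ := hex
  have hP : ∃ m, (a - 1) ^ m *ᵥ v = 0 := ⟨n, by rw [h, Matrix.zero_mulVec]⟩
  have h1 := Nat.find_spec hP
  set m := Nat.find hP with hm
  have hm0 : m ≠ 0 := by
    intro h0
    rw [h0, pow_zero, Matrix.one_mulVec] at h1
    exact hv h1
  obtain ⟨k, hk⟩ := Nat.exists_eq_succ_of_ne_zero hm0
  refine ⟨(a - 1) ^ k *ᵥ v, ?_, ?_⟩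
  · intro h2
    exact Nat.find_min hP (by rw [← hm, hk]; exact Nat.lt_succ_self k) h2
  · rw [hk, Nat.succ_eq_add_one, pow_succ', ← Matrix.mulVec_mulVec, Matrix.sub_mulVec, Matrix.one_mulVec] at h1
    exact sub_eq_zero.mp h1

omit T in
lemma kr_eq_one {a : GL (Fin 2) F} {b : GL β F} (h : kr (a, b) = 1) (hne : ∃ w : β → F, w ≠ 0) :
    ∃ c : F, c ≠ 0 ∧ (∀ u, (a : Matrix (Fin 2) (Fin 2) F) *ᵥ u = c • u) ∧
      (∀ w, (b : Matrix β β F) *ᵥ w = c⁻¹ • w) := by
  have h1 : ∀ u w, ten ((a : Matrix (Fin 2) (Fin 2) F) *ᵥ u) ((b : Matrix β β F) *ᵥ w) = ten u w := by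
    intro u w
    have h2 := kr_mulVec_ten (a, b) u w
    rw [h, Units.val_one, Matrix.one_mulVec] at h2
    exact h2.symm
  obtain ⟨w₀, hw₀⟩ := hne
  obtain ⟨j, hj⟩ := Function.ne_iff.mp hw₀
  have hj' : w₀ j ≠ 0 := hj
  -- a u = c u with c = w₀ j / (b w₀) j
  have hb : ((b : Matrix _ _ F) *ᵥ w₀) j ≠ 0 := by
    intro h0
    have h2 := congrFun (h1 (Pi.single 0 1) w₀) (0, j)
    rw [ten_apply, ten_apply, h0, mul_zero] at h2
    simp at h2
    exact hj' h2.symm
  set c := w₀ j / ((b : Matrix _ _ F) *ᵥ w₀) j with hc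
  have hc0 : c ≠ 0 := div_ne_zero hj' hb
  have ha : ∀ u, (a : Matrix (Fin 2) (Fin 2) F) *ᵥ u = c • u := by
    intro u
    funext i
    have h2 := congrFun (h1 u w₀) (i, j)
    rw [ten_apply, ten_apply] at h2
    rw [Pi.smul_apply, smul_eq_mul, hc, div_mul_eq_mul_div, eq_div_iff hb]
    rw [h2, mul_comm]
  refine ⟨c, hc0, ha, fun w => ?_⟩
  have h2 := h1 (Pi.single 0 1) w
  rw [ha, ten_smul_left, ← ten_smul_right] at h2
  have h3 : (Pi.single 0 1 : Fin 2 → F) ≠ 0 := by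
    intro h
    have := congrFun h 0
    simp at this
  have h4 := ten_right_injective h3 h2
  rw [show c⁻¹ • w = c⁻¹ • (c • ((b : Matrix β β F) *ᵥ w)) by rw [h4], smul_smul, inv_mul_cancel₀ hc0, one_smul]

omit T in
lemma smul_gl (c : F) (hc : c ≠ 0) {ι : Type} [Fintype ι] [DecidableEq ι] (a : GL ι F) : ∃ a' : GL ι F,
    (a' : Matrix ι ι F) = c • (a : Matrix ι ι F) := by
  refine ⟨⟨c • (a : Matrix ι ι F), c⁻¹ • ((a⁻¹ : GL ι F) : Matrix ι ι F), ?_, ?_⟩, rfl⟩
  · rw [Matrix.smul_mul, Matrix.mul_smul, smul_smul, mul_inv_cancel₀ hc, one_smul, ← Units.val_mul, mul_inv_cancel,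
      Units.val_one]
  · rw [Matrix.smul_mul, Matrix.mul_smul, smul_smul, inv_mul_cancel₀ hc, one_smul, ← Units.val_mul, inv_mul_cancel,
      Units.val_one]

/-- **Lemma U**: normalisation of the elements of `p`-power order of `M ∩ range kr`. -/
lemma unip {p : ℕ} [Fact p.Prime] [CharP F p] [Finite F] {s : β → F} (hs : s ≠ 0)
    (hM : Grp f₁ B f M) {y₁ : GL (Fin 2) F} {y₂ : GL β F} (hy : kr (y₁, y₂) ∈ M) {k : ℕ}
    (hk : kr (y₁, y₂) ^ p ^ k = 1) :
    ∃ (a : GL (Fin 2) F) (b : GL β F), kr (a, b) = kr (y₁, y₂) ∧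
      (∀ u v, f₁ ((a : Matrix _ _ F) *ᵥ u) ((a : Matrix _ _ F) *ᵥ v) = f₁ u v) ∧
      (∀ x y, B ((b : Matrix _ _ F) *ᵥ x) ((b : Matrix _ _ F) *ᵥ y) = B x y) ∧
      (∃ e : Fin 2 → F, e ≠ 0 ∧ ∃ c : F, ∀ u, (a : Matrix _ _ F) *ᵥ u = u + (c * f₁ u e) • e) ∧
      ((b : Matrix β β F) - 1) ^ p ^ k = 0 := by
  classical
  have : Nonempty β := by
    obtain ⟨j, hj⟩ := Function.ne_iff.mp hs
    exact ⟨j⟩
  have h1 : kr (y₁ ^ p ^ k, y₂ ^ p ^ k) = 1 := by rw [← hk, ← map_pow, Prod.pow_mk]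
  obtain ⟨c, hc, hc1, hc2⟩ := kr_eq_one h1 ⟨s, hs⟩
  -- c = l ^ (p ^ k)
  obtain ⟨l, hl⟩ : ∃ l : F, l ^ p ^ k = c := by
    have hinj : Function.Injective (fun x : F => x ^ p ^ k) := by
      intro x y hxy
      have h2 : (x - y) ^ p ^ k = 0 := by
        rw [sub_pow_char_pow, show x ^ p ^ k = y ^ p ^ k from hxy, sub_self]
      exact sub_eq_zero.mp (pow_eq_zero_iff (pow_ne_zero _ (Fact.out : p.Prime).ne_zero) |>.mp h2)
    exact (Finite.injective_iff_surjective.mp hinj) c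
  have hl0 : l ≠ 0 := by
    rintro rfl
    rw [zero_pow (pow_ne_zero _ (Fact.out : p.Prime).ne_zero)] at hl
    exact hc hl.symm
  obtain ⟨a, ha⟩ := smul_gl l⁻¹ (inv_ne_zero hl0) y₁
  obtain ⟨b, hb⟩ := smul_gl l hl0 y₂
  have hab : kr (a, b) = kr (y₁, y₂) := by
    apply Units.ext
    rw [coe_kr, coe_kr]
    show (a : Matrix (Fin 2) (Fin 2) F) ⊗ₖ (b : Matrix β β F) = _
    rw [ha, hb, Matrix.smul_kronecker, Matrix.kronecker_smul, smul_smul, inv_mul_cancel₀ hl0, one_smul]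
  have hpa : (a : Matrix (Fin 2) (Fin 2) F) ^ p ^ k = 1 := by
    rw [ha, smul_pow, inv_pow, hl, ← Units.val_pow_eq_pow_val]
    apply Matrix.ext_of_mulVec_single
    intro i
    rw [Matrix.smul_mulVec, hc1, smul_smul, inv_mul_cancel₀ hc, one_smul, Matrix.one_mulVec]
  have hpb : (b : Matrix β β F) ^ p ^ k = 1 := by
    rw [hb, smul_pow, hl, ← Units.val_pow_eq_pow_val]
    apply Matrix.ext_of_mulVec_single
    intro i
    rw [Matrix.smul_mulVec, hc2, smul_smul, mul_inv_cancel₀ hc, one_smul, Matrix.one_mulVec]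
  have hna : ((a : Matrix (Fin 2) (Fin 2) F) - 1) ^ p ^ k = 0 := by
    rw [sub_pow_char_pow_of_commute p k (Commute.one_right _), hpa, one_pow, sub_self]
  have hnb : ((b : Matrix β β F) - 1) ^ p ^ k = 0 := by
    rw [sub_pow_char_pow_of_commute p k (Commute.one_right _), hpb, one_pow, sub_self]
  obtain ⟨μ, hμ, hmult⟩ := exists_mult T.sym a
  have hμ1 : μ = 1 := by
    have h2 : ∀ n : ℕ, ∀ u v, f₁ (((a : Matrix (Fin 2) (Fin 2) F) ^ n) *ᵥ u)
        (((a : Matrix (Fin 2) (Fin 2) F) ^ n) *ᵥ v) = μ ^ n * f₁ u v := by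
      intro n
      induction n with
      | zero => intro u v; simp
      | succ n ih =>
        intro u v
        rw [pow_succ', ← Matrix.mulVec_mulVec, ← Matrix.mulVec_mulVec, hmult, ih, pow_succ]
        ring
    obtain ⟨x, hx⟩ := (T.sym.nondegenerate (Pi.single 0 1) (by
      intro h; have := congrFun h 0; simp at this)).2
    have h3 := h2 (p ^ k) (Pi.single 0 1) x
    rw [hpa, Matrix.one_mulVec, Matrix.one_mulVec] at h3
    have h4 : μ ^ p ^ k = 1 := by
      have h5 : (μ ^ p ^ k - 1) * f₁ (Pi.single 0 1) x = 0 := by linear_combination -h3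
      exact sub_eq_zero.mp ((mul_eq_zero.mp h5).resolve_right hx)
    have h5 : (μ - 1) ^ p ^ k = 0 := by rw [sub_pow_char_pow, h4, one_pow, sub_self]
    exact sub_eq_zero.mp (pow_eq_zero_iff (pow_ne_zero _ (Fact.out : p.Prime).ne_zero) |>.mp h5)
  rw [hμ1] at hmult
  have hmult' : ∀ u v, f₁ ((a : Matrix _ _ F) *ᵥ u) ((a : Matrix _ _ F) *ᵥ v) = f₁ u v := by
    intro u v; rw [hmult, one_mul]
  refine ⟨a, b, hab, hmult', ?_, ?_, hnb⟩
  · intro x y
    obtain ⟨u, hu⟩ := (T.sym.nondegenerate (Pi.single 0 1) (by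
      intro h; have := congrFun h 0; simp at this)).2
    have h2 := hM.iso _ hy (ten (Pi.single 0 1) x) (ten u y)
    rw [← hab, kr_mulVec_ten, kr_mulVec_ten, T.ten, T.ten] at h2
    have h3 : f₁ (Pi.single 0 1) u * B ((b : Matrix _ _ F) *ᵥ x) ((b : Matrix _ _ F) *ᵥ y) =
        f₁ (Pi.single 0 1) u * B x y := by
      rw [← h2, hmult']
    exact mul_left_cancel₀ hu h3
  · obtain ⟨e, he, hae⟩ := exists_fix_of_nilp _ hna
    obtain ⟨c, hc⟩ := tU_form T hmult' he hae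
    exact ⟨e, he, c, hc⟩

end Cfsg.Agent.H919.Four
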