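import Cfsg.Agent.H919.FourI
import Cfsg.Agent.H748.QThreeMain

/-!
# `Sp_2(3) ⊗ O_4^-(3)` in `Sp_8(3)` (helper919)
-/

set_option autoImplicit false
set_option linter.unusedSectionVars false

open Cfsg Cfsg.Geo Matrix
open scoped Kronecker

namespace Cfsg.Agent.H919.Four

open Cfsg.Agent.H929 (QF rB)
open Cfsg.Agent.H872 Cfsg.Agent.H924.Ten

variable {β : Type} [Fintype β] [DecidableEq β] {F : Type*} [Field F]
variable {f₁ : (Fin 2 → F) → (Fin 2 → F) → F} {Q : (β → F) → F} {B : (β → F) → (β → F) → F}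
  {f : (Fin 2 × β → F) → (Fin 2 × β → F) → F}

/-- the elements `t ⊗ 1` -/
def DA (f₁ : (Fin 2 → F) → (Fin 2 → F) → F) (M : Subgroup (GL (Fin 2 × β) F)) : Set (GL (Fin 2 × β) F) :=
  {d | ∃ (e : Fin 2 → F) (c : F) (a : GL (Fin 2) F), e ≠ 0 ∧ c ≠ 0 ∧
    (∀ u, (a : Matrix (Fin 2) (Fin 2) F) *ᵥ u = u + (c * f₁ u e) • e) ∧ kr (a, (1 : GL β F)) ∈ M ∧
    d = kr (a, (1 : GL β F))}

/-- the elements `1 ⊗ h` -/
def DB (Q : (β → F) → F) (B : (β → F) → (β → F) → F) : Set (GL (Fin 2 × β) F) :=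
  {d | ∃ (s a : β → F) (h : GL β F), s ≠ 0 ∧ Q s = 0 ∧ B s a = 0 ∧ Q a ≠ 0 ∧
      Sieg Q B s a h ∧ (∀ x, Q ((h : Matrix β β F) *ᵥ x) = Q x) ∧ d = kr ((1 : GL (Fin 2) F), h)}

variable (T : Tens f₁ Q B f) {M : Subgroup (GL (Fin 2 × β) F)} (hM : Grp f₁ B f M)

include T

/-- a vector with vanishing Gram determinant is fixed by a TI element -/
lemma exists_fix4 (hβ4 : Fintype.card β = 4) (hM : Grp f₁ B f M)
    (hmin : ∀ x y : β → F, x ≠ 0 → Q x = 0 → Q y = 0 → B x y = 0 → ∃ c : F, y = c • x)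
    (v : Fin 2 × β → F)
    (hG : B (fun j => v (0, j)) (fun j => v (0, j)) * B (fun j => v (1, j)) (fun j => v (1, j)) -
          B (fun j => v (0, j)) (fun j => v (1, j)) ^ 2 = 0) :
    ∃ d ∈ DA f₁ M ∪ DB Q B, (d : Matrix (Fin 2 × β) (Fin 2 × β) F) *ᵥ v = v := by
  classical
  set x : β → F := fun j => v (0, j) with hx
  set y : β → F := fun j => v (1, j) with hy
  have hv : v = ten (Pi.single 0 1) x + ten (Pi.single 1 1) y := by
    conv_lhs => rw [eq_sum_ten v]
    rw [Fin.sum_univ_two]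
  -- pure vectors
  have hpure : ∀ (u : Fin 2 → F) (w : β → F), ∃ d ∈ DA f₁ M ∪ DB Q B,
      (d : Matrix (Fin 2 × β) (Fin 2 × β) F) *ᵥ ten u w = ten u w := by
    intro u w
    by_cases hu : u = 0
    · obtain ⟨a, ha, haM, -⟩ := exists_A T hM (Pi.single 0 1) (1 : F)
      refine ⟨_, Or.inl ⟨Pi.single 0 1, 1, a, (by intro h; have := congrFun h 0; simp at this), one_ne_zero, ha, haM,
        rfl⟩, ?_⟩
      rw [hu, ten_zero_left, Matrix.mulVec_zero]
    · obtain ⟨a, ha, haM, -⟩ := exists_A T hM u (1 : F)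
      refine ⟨_, Or.inl ⟨u, 1, a, hu, one_ne_zero, ha, haM, rfl⟩, ?_⟩
      rw [kr_mulVec_ten, ha, T.sym.alternating, mul_zero, zero_smul, add_zero, Units.val_one, Matrix.one_mulVec]
  -- a vector in the radical
  obtain ⟨α, γ, hαγ, h1, h2⟩ : ∃ α γ : F, (α ≠ 0 ∨ γ ≠ 0) ∧ α * B x x + γ * B x y = 0 ∧
      α * B x y + γ * B y y = 0 := by
    by_cases h0 : B x x = 0 ∧ B x y = 0
    · exact ⟨1, 0, Or.inl one_ne_zero, by rw [h0.1, h0.2]; ring, by rw [h0.2]; ring⟩
    · refine ⟨-B x y, B x x, ?_, by ring, by linear_combination hG⟩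
      by_contra hcon
      push Not at hcon
      exact h0 ⟨hcon.2, neg_eq_zero.mp hcon.1⟩
  set z := α • x + γ • y with hz
  by_cases hz0 : z = 0
  · -- pure
    have hzz : α • x + γ • y = 0 := by rw [← hz]; exact hz0
    by_cases hα : α = 0
    · have hγ : γ ≠ 0 := by
        rcases hαγ with h | h
        · exact absurd hα h
        · exact h
      have hy0 : y = 0 := by
        rw [hα, zero_smul, zero_add] at hzz
        exact (smul_eq_zero.mp hzz).resolve_left hγ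
      rw [hv, hy0, ten_zero_right, add_zero]
      exact hpure _ _
    · have hxy : x = (-(α⁻¹ * γ)) • y := by
        have h3 : α⁻¹ • (α • x + γ • y) = 0 := by rw [hzz, smul_zero]
        rw [smul_add, smul_smul, smul_smul, inv_mul_cancel₀ hα, one_smul] at h3
        rw [neg_smul]
        exact eq_neg_of_add_eq_zero_left h3
      rw [hv, hxy, ten_smul_right, ← ten_smul_left, ← ten_add_left]
      exact hpure _ _
  · -- rank two
    have hzx : B z x = 0 := by
      rw [hz, T.qf.add_left, T.qf.smul_left, T.qf.smul_left, T.qf.comm y x]; exact h1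
    have hzy : B z y = 0 := by
      rw [hz, T.qf.add_left, T.qf.smul_left, T.qf.smul_left]; exact h2
    have hQz : Q z = 0 := by
      have h3 : B z z = 0 := by
        conv_lhs => rw [hz]
        rw [T.qf.add_left, T.qf.smul_left, T.qf.smul_left, T.qf.comm x z, T.qf.comm y z, hzx, hzy]
        ring
      rw [T.qf.self] at h3
      exact (mul_eq_zero.mp h3).resolve_left T.two
    let L : (β → F) →ₗ[F] F × F :=
      { toFun := fun w => (B w x, B w y)
        map_add' := fun p q => by rw [T.qf.add_left, T.qf.add_left]; rfl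
        map_smul' := fun r p => by rw [T.qf.smul_left, T.qf.smul_left]; rfl }
    have hker : ∀ w, w ∈ LinearMap.ker L ↔ B w x = 0 ∧ B w y = 0 := by
      intro w
      rw [LinearMap.mem_ker]
      exact Prod.mk_eq_zero
    have h3 : 2 ≤ Module.finrank F (LinearMap.ker L) := by
      have h4 := L.finrank_range_add_finrank_ker
      have h5 : Module.finrank F (LinearMap.range L) ≤ 2 := by
        refine (Submodule.finrank_le _).trans ?_
        simp
      rw [Module.finrank_fintype_fun_eq_card, hβ4] at h4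
      omega
    obtain ⟨a, ha, hQa⟩ : ∃ a ∈ LinearMap.ker L, Q a ≠ 0 := by
      by_contra hcon
      push Not at hcon
      have h4 : LinearMap.ker L ≤ Submodule.span F {z} := by
        intro w hw
        rw [Submodule.mem_span_singleton]
        have hzw : B z w = 0 := by
          obtain ⟨h5, h6⟩ := (hker w).mp hw
          rw [hz, T.qf.add_left, T.qf.smul_left, T.qf.smul_left, T.qf.comm x w, T.qf.comm y w, h5, h6]
          ring
        obtain ⟨c, hc⟩ := hmin z w hz0 hQz (hcon w hw) hzw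
        exact ⟨c, hc.symm⟩
      have h5 := Submodule.finrank_mono h4
      have h6 := finrank_span_le_card (R := F) ({z} : Set (β → F))
      rw [Set.toFinset_card, Set.card_singleton] at h6
      omega
    obtain ⟨h5, h6⟩ := (hker a).mp ha
    have hza : B z a = 0 := by
      rw [hz, T.qf.add_left, T.qf.smul_left, T.qf.smul_left, T.qf.comm x a, T.qf.comm y a, h5, h6]
      ring
    obtain ⟨h, hh, hiso⟩ := T.exists_sieg hQz hza
    refine ⟨_, Or.inr ⟨z, a, h, hz0, hQz, hza, hQa, hh, hiso, rfl⟩, ?_⟩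
    have hRz : R B z v = 0 := by
      rw [hv, map_add, T.R_ten, T.R_ten, hzx, hzy, zero_smul, zero_smul, add_zero]
    have hRa : R B a v = 0 := by
      rw [hv, map_add, T.R_ten, T.R_ten, h5, h6, zero_smul, zero_smul, add_zero]
    rw [T.kr_sieg hh, hRz, hRa, ten_zero_left, ten_zero_left, smul_zero, add_zero, sub_zero, sub_zero]

/-- an element of `M ∩ range kr` maps pure singular vectors to pure singular vectors -/
lemma kr_sing (hM : Grp f₁ B f M) {a : GL (Fin 2) F} {b : GL β F} (hab : kr (a, b) ∈ M) {s : β → F} (hQs : Q s = 0) :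
    Q ((b : Matrix β β F) *ᵥ s) = 0 := by
  have hss : B s s = 0 := by rw [T.qf.self, hQs, mul_zero]
  set e : Fin 2 → F := Pi.single 0 1 with he
  have he0 : (a : Matrix (Fin 2) (Fin 2) F) *ᵥ e ≠ 0 := by
    intro h
    have h1 := gl_mulVec_eq_zero a h
    have := congrFun h1 0
    simp [he] at this
  obtain ⟨x, hx⟩ := (T.sym.nondegenerate _ he0).2
  have h1 := hM.iso _ hab (ten e s) (ten ((((a⁻¹ : GL (Fin 2) F)) : Matrix (Fin 2) (Fin 2) F) *ᵥ x) s)
  rw [kr_mulVec_ten, kr_mulVec_ten, T.ten, T.ten, hss, mul_zero, gl_mulVec_inv, T.qf.self] at h1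
  have h2 := (mul_eq_zero.mp h1).resolve_left hx
  exact (mul_eq_zero.mp h2).resolve_left T.two

/-- **The case `q = 3`.** -/
theorem main3 [Fintype F] (hF : Fintype.card F = 3) (hβ4 : Fintype.card β = 4) (hM : Grp f₁ B f M)
    (hmin : ∀ x y : β → F, x ≠ 0 → Q x = 0 → Q y = 0 → B x y = 0 → ∃ c : F, y = c • x)
    (hnc : ∀ s, s ≠ 0 → Q s = 0 → NoC B M s) {g : GL (Fin 2 × β) F} (hg : g ∈ M) :
    ∃ x : GL (Fin 2) F × GL β F, kr x = g := by
  classical
  obtain ⟨s, hs, hQs⟩ := exists_sing T (by omega)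
  have hsq : NoSq B := noSq_of_min T hmin
  obtain ⟨p, hp⟩ := CharP.exists F
  have hpp : p.Prime := by
    rcases CharP.char_is_prime_or_zero F p with h | h
    · exact h
    · exfalso
      subst h
      have := CharP.charP_to_charZero F
      exact not_finite F
  have hβ : (Fintype.card β : F) ≠ 0 := by
    rw [hβ4]
    have : ((4 : ℕ) : F) = 2 * 2 := by push_cast; ring
    rw [this]
    exact mul_ne_zero T.two T.two
  have : Finite M := inferInstance
  set H : Subgroup (GL (Fin 2 × β) F) := (kr (α := Fin 2) (β := β) (F := F)).range ⊓ M with hH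
  have hDH : ∀ d ∈ DA f₁ M ∪ DB Q B, d ∈ H ∧ ∃ k : ℕ, d ^ p ^ k = 1 := by
    rintro d (⟨e, c, a, he, hc, ha, haM, rfl⟩ | ⟨s, a, h, hs, hQs, hsa, hQa, hh, hiso, rfl⟩)
    · refine ⟨⟨⟨_, rfl⟩, haM⟩, 1, ?_⟩
      have h1 : a ^ p = 1 := by
        apply Units.ext
        apply Matrix.ext_of_mulVec_single
        intro i
        rw [tU_pow T ha, CharP.cast_eq_zero F p, Units.val_one, Matrix.one_mulVec]
        simp
      rw [pow_one, ← map_pow, Prod.pow_mk, one_pow, h1]
      exact map_one kr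
    · refine ⟨⟨⟨_, rfl⟩, T.one_kr_mem hM (T.B_iso hiso)⟩, 1, ?_⟩
      have h1 : h ^ p = 1 := by
        apply Units.ext
        apply Matrix.ext_of_mulVec_single
        intro i
        rw [T.sieg_pow hQs hsa hh, CharP.cast_eq_zero F p, Units.val_one, Matrix.one_mulVec]
        simp
      rw [pow_one, ← map_pow, Prod.pow_mk, one_pow, h1]
      exact map_one kr
  have hTI : ∀ d ∈ DA f₁ M ∪ DB Q B, ∀ g ∈ M, g * d * g⁻¹ ∈ H → g ∈ H := by
    rintro d (⟨e, c, a, he, hc, ha, haM, rfl⟩ | ⟨s', a, h, hs', hQs', hsa, hQa, hh, hiso, rfl⟩) g hg hgH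
    · exact ⟨tiA T hM hβ (by omega) hs hQs (hnc s hs hQs) hsq he hc ha hg hgH.1, hg⟩
    · exact ⟨tiB T hβ4 hM hs' hQs' (hnc s' hs' hQs') hsa hQa hsq hh hiso hg hgH.1, hg⟩
  -- the orbits of the pure singular vectors
  have horb : ∀ (e : Fin 2 → F) (s : β → F), e ≠ 0 → s ≠ 0 → Q s = 0 → ∀ g ∈ M, ∃ u w, Q w = 0 ∧
      (g : Matrix (Fin 2 × β) (Fin 2 × β) F) *ᵥ ten e s = ten u w := by
    intro e s he hs hQs
    refine Cfsg.Agent.H748.QThree.q3_orbit T hM hF hβ4 ?_ he hs hQs ?_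
    · intro x y hx hy hxy
      by_cases hx0 : x = 0
      · exact ⟨1, 0, Or.inl one_ne_zero, by rw [hx0, smul_zero, zero_smul, add_zero]⟩
      · obtain ⟨c, hc⟩ := hmin x y hx0 hx hy hxy
        refine ⟨-c, 1, Or.inr one_ne_zero, ?_⟩
        rw [hc, one_smul, neg_smul, neg_add_cancel]
    · intro g hg
      by_cases hG : B (fun j => ((g : Matrix (Fin 2 × β) (Fin 2 × β) F) *ᵥ ten e s) (0, j))
            (fun j => ((g : Matrix (Fin 2 × β) (Fin 2 × β) F) *ᵥ ten e s) (0, j)) *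
          B (fun j => ((g : Matrix (Fin 2 × β) (Fin 2 × β) F) *ᵥ ten e s) (1, j))
            (fun j => ((g : Matrix (Fin 2 × β) (Fin 2 × β) F) *ᵥ ten e s) (1, j)) -
          B (fun j => ((g : Matrix (Fin 2 × β) (Fin 2 × β) F) *ᵥ ten e s) (0, j))
            (fun j => ((g : Matrix (Fin 2 × β) (Fin 2 × β) F) *ᵥ ten e s) (1, j)) ^ 2 = 0
      · left
        obtain ⟨d, hd, hdv⟩ := exists_fix4 T hβ4 hM hmin _ hG
        obtain ⟨a, ha, haM, -⟩ := exists_A T hM e (1 : F)
        have ht : kr (a, (1 : GL β F)) ∈ DA f₁ M ∪ DB Q B := Or.inl ⟨e, 1, a, he, one_ne_zero, ha, haM, rfl⟩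
        have htv : (kr (a, (1 : GL β F)) : Matrix (Fin 2 × β) (Fin 2 × β) F) *ᵥ ten e s = ten e s := by
          rw [kr_mulVec_ten, ha, T.sym.alternating, mul_zero, zero_smul, add_zero, Units.val_one, Matrix.one_mulVec]
        obtain ⟨m, hm, h, hh, hgm⟩ := Cfsg.Agent.H880.ti_transfer_one hpp M H inf_le_right _ hDH hTI
          (Tens.vstab ((g : Matrix (Fin 2 × β) (Fin 2 × β) F) *ᵥ ten e s)) hd ht hg hdv (by
            show ((g * _ * g⁻¹ : GL (Fin 2 × β) F) : Matrix (Fin 2 × β) (Fin 2 × β) F) *ᵥ _ = _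
            rw [gl_mul_mulVec, gl_mul_mulVec, gl_inv_mulVec, htv])
        obtain ⟨⟨⟨x₁, x₂⟩, rfl⟩, hxM⟩ := hh
        have hm' : (m : Matrix (Fin 2 × β) (Fin 2 × β) F) *ᵥ
            ((g : Matrix (Fin 2 × β) (Fin 2 × β) F) *ᵥ ten e s) =
            (g : Matrix (Fin 2 × β) (Fin 2 × β) F) *ᵥ ten e s := hm
        have h1 : (m : Matrix (Fin 2 × β) (Fin 2 × β) F) *ᵥ
            ((kr (x₁, x₂) : Matrix (Fin 2 × β) (Fin 2 × β) F) *ᵥ ten e s) =
            (g : Matrix (Fin 2 × β) (Fin 2 × β) F) *ᵥ ten e s := by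
          rw [← gl_mul_mulVec, ← hgm]
        rw [← hm'] at h1
        have h2 := congrArg (fun x => ((m⁻¹ : GL (Fin 2 × β) F) : Matrix (Fin 2 × β) (Fin 2 × β) F) *ᵥ x) h1
        simp only [gl_inv_mulVec] at h2
        rw [← h2, kr_mulVec_ten]
        exact ⟨_, _, kr_sing T hM hxM hQs, rfl⟩
      · right
        exact hG
  -- `g (U ⊗ s) = U ⊗ s'`
  have he₀ : (Pi.single 0 1 : Fin 2 → F) ≠ 0 := by intro h; have := congrFun h 0; simp at this
  obtain ⟨u₁, w₁, hw₁, h1⟩ := horb (Pi.single 0 1) s he₀ hs hQs g hg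
  have hne : ten u₁ w₁ ≠ 0 := by
    intro h
    rw [h] at h1
    have h2 := gl_mulVec_eq_zero g h1
    rcases ten_eq_zero h2 with h3 | h3
    · exact he₀ h3
    · exact hs h3
  have hu₁ : u₁ ≠ 0 := by rintro rfl; exact hne (ten_zero_left w₁)
  have hw₁0 : w₁ ≠ 0 := by rintro rfl; exact hne (ten_zero_right u₁)
  have himg : ∀ u, ∃ u', (g : Matrix (Fin 2 × β) (Fin 2 × β) F) *ᵥ ten u s = ten u' w₁ := by
    intro u
    by_cases hu : u = 0
    · exact ⟨0, by rw [hu, ten_zero_left, ten_zero_left, Matrix.mulVec_zero]⟩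
    obtain ⟨u₂, w₂, hw₂, h2⟩ := horb u s hu hs hQs g hg
    -- the sum
    have h3 : ∃ u₃ w₃, Q w₃ = 0 ∧ ten u₁ w₁ + ten u₂ w₂ = ten u₃ w₃ := by
      by_cases hsum : (Pi.single 0 1 : Fin 2 → F) + u = 0
      · refine ⟨0, 0, T.qf.zero, ?_⟩
        rw [← h1, ← h2, ← Matrix.mulVec_add, ← ten_add_left, hsum, ten_zero_left, Matrix.mulVec_zero, ten_zero_left]
      · obtain ⟨u₃, w₃, hw₃, h4⟩ := horb _ s hsum hs hQs g hg
        refine ⟨u₃, w₃, hw₃, ?_⟩
        rw [← h1, ← h2, ← h4, ← Matrix.mulVec_add, ← ten_add_left]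
    obtain ⟨u₃, w₃, hw₃, h4⟩ := h3
    rw [h2]
    -- `w₂` is a multiple of `w₁`, or `u₂` a multiple of `u₁`
    by_cases hpar : ∃ c : F, u₂ = c • u₁
    · obtain ⟨c, rfl⟩ := hpar
      by_cases hc : c = 0
      · exact ⟨0, by rw [hc, zero_smul, ten_zero_left, ten_zero_left]⟩
      have h5 : ten u₁ (w₁ + c • w₂) = ten u₃ w₃ := by
        rw [← h4, ten_add_right, ten_smul_left, ten_smul_right]
      -- `Q (w₁ + c w₂) = 0`
      obtain ⟨i, hi⟩ := Function.ne_iff.mp hu₁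
      have hi' : u₁ i ≠ 0 := hi
      have h6 : w₁ + c • w₂ = (u₃ i / u₁ i) • w₃ := by
        funext j
        have h7 := congrFun h5 (i, j)
        rw [ten_apply, ten_apply] at h7
        rw [Pi.smul_apply, smul_eq_mul, div_mul_eq_mul_div, eq_div_iff hi', mul_comm]
        exact h7
      have h7 : Q (w₁ + c • w₂) = 0 := by rw [h6, T.qf.smul, hw₃, mul_zero]
      rw [T.qf.add, hw₁, T.qf.smul, hw₂, mul_zero, zero_add, zero_add, T.qf.smul_right] at h7
      have h8 := (mul_eq_zero.mp h7).resolve_left hc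
      obtain ⟨c', hc'⟩ := hmin w₁ w₂ hw₁0 hw₁ hw₂ h8
      exact ⟨c' • (c • u₁), by rw [hc', ten_smul_right, ten_smul_left c']⟩
    · -- `u₁, u₂` independent
      push Not at hpar
      have hdet : u₁ 0 * u₂ 1 - u₁ 1 * u₂ 0 ≠ 0 := by
        intro h0
        by_cases h00 : u₁ 0 = 0
        · have h01 : u₁ 1 ≠ 0 := by
            intro h01
            apply hu₁
            funext i
            fin_cases i
            · exact h00
            · exact h01
          apply hpar (u₂ 1 / u₁ 1)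
          funext i
          fin_cases i
          · show u₂ 0 = u₂ 1 / u₁ 1 * u₁ 0
            rw [h00, zero_mul, zero_sub, neg_eq_zero] at h0
            rw [h00, mul_zero]
            exact (mul_eq_zero.mp h0).resolve_left h01
          · show u₂ 1 = u₂ 1 / u₁ 1 * u₁ 1
            rw [div_mul_cancel₀ _ h01]
        · apply hpar (u₂ 0 / u₁ 0)
          funext i
          fin_cases i
          · show u₂ 0 = u₂ 0 / u₁ 0 * u₁ 0
            rw [div_mul_cancel₀ _ h00]
          · show u₂ 1 = u₂ 0 / u₁ 0 * u₁ 1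
            rw [div_mul_eq_mul_div, eq_div_iff h00]
            linear_combination h0
      -- rows
      have r0 : ∀ j, u₁ 0 * w₁ j + u₂ 0 * w₂ j = u₃ 0 * w₃ j := by
        intro j
        have := congrFun h4 (0, j)
        simpa [ten_apply] using this
      have r1 : ∀ j, u₁ 1 * w₁ j + u₂ 1 * w₂ j = u₃ 1 * w₃ j := by
        intro j
        have := congrFun h4 (1, j)
        simpa [ten_apply] using this
      have hA : w₁ = ((u₂ 1 * u₃ 0 - u₂ 0 * u₃ 1) / (u₁ 0 * u₂ 1 - u₁ 1 * u₂ 0)) • w₃ := by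
        funext j
        rw [Pi.smul_apply, smul_eq_mul, div_mul_eq_mul_div, eq_div_iff hdet]
        linear_combination u₂ 1 * r0 j - u₂ 0 * r1 j
      have hBB : w₂ = ((u₁ 0 * u₃ 1 - u₁ 1 * u₃ 0) / (u₁ 0 * u₂ 1 - u₁ 1 * u₂ 0)) • w₃ := by
        funext j
        rw [Pi.smul_apply, smul_eq_mul, div_mul_eq_mul_div, eq_div_iff hdet]
        linear_combination u₁ 0 * r1 j - u₁ 1 * r0 j
      set k := (u₂ 1 * u₃ 0 - u₂ 0 * u₃ 1) / (u₁ 0 * u₂ 1 - u₁ 1 * u₂ 0) with hk
      have hk0 : k ≠ 0 := by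
        intro h0
        rw [h0, zero_smul] at hA
        exact hw₁0 hA
      refine ⟨(((u₁ 0 * u₃ 1 - u₁ 1 * u₃ 0) / (u₁ 0 * u₂ 1 - u₁ 1 * u₂ 0)) * k⁻¹) • u₂, ?_⟩
      rw [hA, ten_smul_left, ten_smul_right, smul_smul, mul_assoc, inv_mul_cancel₀ hk0, mul_one]
      conv_lhs => rw [hBB]
      rw [ten_smul_right]
  obtain ⟨b, hb, hbs⟩ := exists_iso_map T hs hw₁0 (by rw [hQs, hw₁])
  have hk := T.one_kr_mem hM (T.B_iso hb)
  obtain ⟨x, hx⟩ := T.stab hM hs hQs (hnc s hs hQs) (g := (kr ((1 : GL (Fin 2) F), b))⁻¹ * g)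
    (M.mul_mem (M.inv_mem hk) hg) (by
    intro u
    obtain ⟨u', hu'⟩ := himg u
    refine ⟨u', ?_⟩
    rw [gl_mul_mulVec, hu', ← hbs]
    have h5 : ten u' ((b : Matrix β β F) *ᵥ s) = (kr ((1 : GL (Fin 2) F), b) : Matrix (Fin 2 × β) (Fin 2 × β) F) *ᵥ
        ten u' s := by
      rw [kr_mulVec_ten, Units.val_one, Matrix.one_mulVec]
    rw [h5, gl_inv_mulVec])
  refine ⟨((1 : GL (Fin 2) F), b) * x, ?_⟩
  rw [map_mul, hx]
  group

omit T in
/-- **Item (8) of S5822.** -/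
theorem tensor_minus_maximal {F : Type*} [Field F] [Fintype F] (hodd : Odd (Fintype.card F))
    (e : (Fin 4 ⊕ Fin 4) ≃ Fin 2 × Fin 4) (P : GL (Fin 4 ⊕ Fin 4) F)
    (f₁ : (Fin 2 → F) → (Fin 2 → F) → F) (f₂ : (Fin 4 → F) → (Fin 4 → F) → F)
    (hf₁ : IsSymplecticForm f₁) (hf₂ : IsSymmetricForm f₂)
    (hminus : ¬ IsPlusTypeOn (fun v : Fin 4 → F => f₂ v v) ⊤)
    (hT : IsTensorFormStructure id (sympForm 4 F) f₁ f₂ e P) :
    IsMaximalIn (spGL 4 F) (tensorProductSubgroup 2 4 e P ⊓ spGL 4 F) := by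
  by_cases hq : 3 < Fintype.card F
  · exact tensor_minus_maximal5 hodd hq e P f₁ f₂ hf₁ hf₂ hminus hT
  · have h2 := two_ne_of_odd hodd
    have h3 : Fintype.card F = 3 := by
      have h4 : 1 < Fintype.card F := Fintype.one_lt_card
      rw [Nat.odd_iff] at hodd
      omega
    refine tensor_two_maximal_of (by norm_num) hodd e P f₁ f₂ hf₁ hf₂ hT ?_
    intro c hc f T M hM
    apply dich_of T hM
    intro hnc g hg
    exact main3 T h3 (by simp) hM (min_of_minus T.two hf₂ hminus hc) hnc hg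

end Cfsg.Agent.H919.Four
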