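import Cfsg.Agent.H874.SpCOne
import Cfsg.Agent.H875.SpGen
import Cfsg.Agent.H914.SpFields
import Cfsg.Agent.H875.UnitSp
import Cfsg.Agent.H919.FourJ
import Cfsg.Agent.H875.SpGenEven
import Cfsg.Agent.H910.QuadMax
import Cfsg.Agent.H920.ExEight
import Cfsg.Agent.H874.SpPower

/-!
# S5822 from S5824 and the Schreier property (helper919)
-/

set_option autoImplicit false
open Cfsg

namespace Cfsg.Agent.H919.SpEight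

theorem geometric_of {F : Type*} [Field F] [Fintype F]
    (hlist : ∀ H : Subgroup (Matrix.GeneralLinearGroup (Fin 4 ⊕ Fin 4) F), Cfsg.Geo.IsMaximalIn (Cfsg.spGL 4 F) H →
      Cfsg.Geo.InSymplecticResidualClass H →
    ∃ (P : Subgroup (Matrix.GeneralLinearGroup (Fin 4 ⊕ Fin 4) F)) (p : ℕ), Cfsg.Geo.IsResidualCore H P ∧ p.Prime ∧ CharP F p ∧
    ((Nonempty ((P ⧸ (Cfsg.Geo.scalars (Fin 4 ⊕ Fin 4) F).subgroupOf P) ≃* Matrix.ProjectiveSpecialLinearGroup (Fin 2) (ZMod 7)) ∧ Fintype.card F = p ∧ 5 ≤ p ∧ p ≠ 7) ∨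
     (Nonempty ((P ⧸ (Cfsg.Geo.scalars (Fin 4 ⊕ Fin 4) F).subgroupOf P) ≃* alternatingGroup (Fin 6)) ∧ ((Fintype.card F = p ∧ (p % 20 = 1 ∨ p % 20 = 19 ∨ p % 20 = 9 ∨ p % 20 = 11)) ∨ (Fintype.card F = p ^ 2 ∧ p ≠ 2 ∧ p ≠ 3 ∧ (p % 5 = 2 ∨ p % 5 = 3)))) ∨
     (Nonempty ((P ⧸ (Cfsg.Geo.scalars (Fin 4 ⊕ Fin 4) F).subgroupOf P) ≃* Matrix.ProjectiveSpecialLinearGroup (Fin 2) (ZMod 17)) ∧ ((Fintype.card F = p ∧ (p % 17 = 1 ∨ p % 17 = 16 ∨ p % 17 = 2 ∨ p % 17 = 15 ∨ p % 17 = 4 ∨ p % 17 = 13 ∨ p % 17 = 8 ∨ p % 17 = 9)) ∨ (Fintype.card F = p ^ 2 ∧ (p % 17 = 3 ∨ p % 17 = 14 ∨ p % 17 = 5 ∨ p % 17 = 12 ∨ p % 17 = 6 ∨ p % 17 = 11 ∨ p % 17 = 7 ∨ p % 17 = 10)))) ∨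
     (Nonempty ((P ⧸ (Cfsg.Geo.scalars (Fin 4 ⊕ Fin 4) F).subgroupOf P) ≃* alternatingGroup (Fin 10)) ∧ Fintype.card F = 2) ∨
     (Nonempty ((P ⧸ (Cfsg.Geo.scalars (Fin 4 ⊕ Fin 4) F).subgroupOf P) ≃* Matrix.ProjectiveSpecialLinearGroup (Fin 2) F) ∧ 11 ≤ p) ∨
     ((∃ (K : Type) (_ : Field K) (_ : Fintype K), Fintype.card K = Fintype.card F ^ 3 ∧ Nonempty ((P ⧸ (Cfsg.Geo.scalars (Fin 4 ⊕ Fin 4) F).subgroupOf P) ≃* Matrix.ProjectiveSpecialLinearGroup (Fin 2) K)) ∧ Odd (Fintype.card F))))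
    (hsch : Cfsg.Agent.H920.SchAll (Fin 4 ⊕ Fin 4) F) :
    (∀ W : Submodule F (Fin 4 ⊕ Fin 4 → F), W ≠ ⊥ → Cfsg.Geo.IsTotallySingularFor (Cfsg.sympForm 4 F) W → Cfsg.Geo.IsMaximalIn (Cfsg.spGL 4 F) (Cfsg.Geo.subspaceStabilizer W ⊓ Cfsg.spGL 4 F)) ∧
    (∀ W : Submodule F (Fin 4 ⊕ Fin 4 → F), W ≠ ⊥ → Cfsg.Geo.IsNondegenerateOn (Cfsg.sympForm 4 F) W → Module.finrank F W < 4 → Cfsg.Geo.IsMaximalIn (Cfsg.spGL 4 F) (Cfsg.Geo.subspaceStabilizer W ⊓ Cfsg.spGL 4 F)) ∧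
    (3 ≤ Fintype.card F → ∀ D : Fin 4 → Submodule F (Fin 4 ⊕ Fin 4 → F), Cfsg.Geo.IsNondegenerateMDecomposition (Cfsg.sympForm 4 F) 2 D → Cfsg.Geo.IsMaximalIn (Cfsg.spGL 4 F) (Cfsg.Geo.decompositionStabilizer D ⊓ Cfsg.spGL 4 F)) ∧
    (∀ D : Fin 2 → Submodule F (Fin 4 ⊕ Fin 4 → F), Cfsg.Geo.IsNondegenerateMDecomposition (Cfsg.sympForm 4 F) 4 D → Cfsg.Geo.IsMaximalIn (Cfsg.spGL 4 F) (Cfsg.Geo.decompositionStabilizer D ⊓ Cfsg.spGL 4 F)) ∧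
    (Odd (Fintype.card F) → ∀ D : Fin 2 → Submodule F (Fin 4 ⊕ Fin 4 → F), Cfsg.Geo.IsMDecomposition 4 D → (∀ i, Cfsg.Geo.IsTotallySingularFor (Cfsg.sympForm 4 F) (D i)) → Cfsg.Geo.IsMaximalIn (Cfsg.spGL 4 F) (Cfsg.Geo.decompositionStabilizer D ⊓ Cfsg.spGL 4 F)) ∧
    (∀ K : Subalgebra F (Matrix (Fin 4 ⊕ Fin 4) (Fin 4 ⊕ Fin 4) F), Cfsg.Geo.IsFieldSubalgebra 2 K → Cfsg.Geo.IsSelfAdjointFor (Cfsg.sympForm 4 F) K → (∀ k ∈ K, ∀ v : (Fin 4 ⊕ Fin 4 → F), (Cfsg.sympForm 4 F) (Matrix.mulVec k v) v = 0) → Cfsg.Geo.IsMaximalIn (Cfsg.spGL 4 F) (Cfsg.Geo.subalgebraNormalizer K ⊓ Cfsg.spGL 4 F)) ∧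
    (Odd (Fintype.card F) → ∀ K : Subalgebra F (Matrix (Fin 4 ⊕ Fin 4) (Fin 4 ⊕ Fin 4) F), Cfsg.Geo.IsFieldSubalgebra 2 K → Cfsg.Geo.IsAdjointClosedFor (Cfsg.sympForm 4 F) K → ¬ Cfsg.Geo.IsSelfAdjointFor (Cfsg.sympForm 4 F) K → Cfsg.Geo.IsMaximalIn (Cfsg.spGL 4 F) (Cfsg.Geo.subalgebraNormalizer K ⊓ Cfsg.spGL 4 F)) ∧
    (Odd (Fintype.card F) → ∀ (e : (Fin 4 ⊕ Fin 4) ≃ Fin 2 × Fin 4) (P : Matrix.GeneralLinearGroup (Fin 4 ⊕ Fin 4) F) (f₁ : (Fin 2 → F) → (Fin 2 → F) → F) (f₂ : (Fin 4 → F) → (Fin 4 → F) → F), Cfsg.Geo.IsSymplecticForm f₁ → Cfsg.Geo.IsSymmetricForm f₂ → ¬ Cfsg.Geo.IsPlusTypeOn (fun v : Fin 4 → F => f₂ v v) ⊤ → Cfsg.Geo.IsTensorFormStructure id (Cfsg.sympForm 4 F) f₁ f₂ e P → Cfsg.Geo.IsMaximalIn (Cfsg.spGL 4 F) (Cfsg.Geo.tensorProductSubgroup 2 4 e P ⊓ Cfsg.spGL 4 F)) ∧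
    (∀ (F₀ : Subfield F) (r : ℕ) (P : Matrix.GeneralLinearGroup (Fin 4 ⊕ Fin 4) F) (ζ : F), r.Prime → Fintype.card F = Nat.card F₀ ^ r → ζ ≠ 0 → Cfsg.Geo.IsFormRationalStructure (Cfsg.sympForm 4 F) F₀ ζ P → Cfsg.Geo.IsMaximalIn (Cfsg.spGL 4 F) (Cfsg.Geo.subfieldSubgroup F₀ P ⊓ Cfsg.spGL 4 F)) ∧
    (∀ (p : ℕ) (R : Subgroup (Matrix.GeneralLinearGroup (Fin 4 ⊕ Fin 4) F)), p.Prime → Odd p → Fintype.card F = p → Cfsg.Geo.IsSymplecticTypeGroup 2 R → Cfsg.Geo.ActsAbsolutelyIrreducibly (Cfsg.Geo.matrixSet R) → R ≤ Cfsg.spGL 4 F → Nat.card R = 128 → Nat.card (Subgroup.center R) = 2 → Cfsg.Geo.IsOfMinusType 3 R → Cfsg.Geo.IsMaximalIn (Cfsg.spGL 4 F) (Cfsg.Geo.subgroupNormalizer R ⊓ Cfsg.spGL 4 F)) ∧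
    (Odd (Fintype.card F) → 5 ≤ Fintype.card F → ∀ (e : (Fin 4 ⊕ Fin 4) ≃ (Fin 3 → Fin 2)) (P : Matrix.GeneralLinearGroup (Fin 4 ⊕ Fin 4) F) (f₁ : (Fin 2 → F) → (Fin 2 → F) → F), Cfsg.Geo.IsSymplecticForm f₁ → Cfsg.Geo.IsTensorPowerFormStructure id (Cfsg.sympForm 4 F) f₁ e P → Cfsg.Geo.IsMaximalIn (Cfsg.spGL 4 F) (Cfsg.Geo.tensorWreathSubgroup 2 3 e P ⊓ Cfsg.spGL 4 F)) ∧
    (¬ Odd (Fintype.card F) → ∀ Q : (Fin 4 ⊕ Fin 4 → F) → F, Cfsg.Geo.IsNondegenerateQuadraticForm Q → (∀ u v : (Fin 4 ⊕ Fin 4 → F), QuadraticMap.polar Q u v = (Cfsg.sympForm 4 F) u v) → Cfsg.Geo.IsMaximalIn (Cfsg.spGL 4 F) (Cfsg.Geo.quadSimilarityGroup Q ⊓ Cfsg.spGL 4 F)) := by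
  classical
  have h2 : 2 ≤ Fintype.card F := Fintype.one_lt_card
  refine ⟨?_, ?_, ?_, ?_, ?_, ?_, ?_, ?_, ?_, ?_, ?_, ?_⟩
  · intro W hW hs
    exact Cfsg.Agent.H874.SpCOne.singular_maximal W hW hs
  · intro W hW hn hd
    refine Cfsg.Agent.H874.SpCOne.nondegenerate_maximal W hW ?_ hn (by omega)
    rintro rfl
    rw [finrank_top, Module.finrank_fintype_fun_eq_card] at hd
    simp at hd
  · intro hq D hD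
    exact Cfsg.Agent.H875.SpGen.dec_maximal 4 2 D hD (by omega)
  · intro D hD
    exact Cfsg.Agent.H875.SpGen.dec_maximal 4 4 D hD (by omega)
  · intro hodd D hD hs
    exact Cfsg.Agent.H875.SpGen.pair_maximal 4 le_rfl hodd D hD hs
  · intro K hK hsa h0
    exact Cfsg.Agent.H914.SpFields.field_maximal 4 (by norm_num) 2 Nat.prime_two K hK hsa h0
  · intro hodd K hK hadj hn
    exact Cfsg.Agent.H875.UnitSp.unit_maximal 4 le_rfl hodd K hK hadj hn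
  · intro hodd e P f₁ f₂ hf₁ hf₂ hminus hT
    exact Cfsg.Agent.H919.Four.tensor_minus_maximal hodd e P f₁ f₂ hf₁ hf₂ hminus hT
  · intro F₀ r P ζ hr hc hζ hrat
    exact Cfsg.Agent.H875.SpGenEven.sub_maximal_all 4 (by norm_num) F₀ r hr hc P ζ hζ hrat
  · exact Cfsg.Agent.H920.sp8_class_six hlist hsch
  · intro hodd hq e P f₁ hf₁ hT
    exact Cfsg.Agent.H874.tensorWreath_maximal 4 (by norm_num) hodd 2 3 (by decide) le_rfl (by omega) e P f₁ hf₁ hT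
  · intro heven Q hQ hpol
    have hch : ringChar F = 2 := by
      by_contra h
      exact heven (Nat.odd_iff.mpr (FiniteField.odd_card_of_char_ne_two h))
    have : CharP F 2 := by rw [← hch]; exact ringChar.charP F
    exact Cfsg.Agent.H910.quad_maximal (by norm_num) hQ hpol

end Cfsg.Agent.H919.SpEight
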